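import Cfsg.Agent.Lib.Helper3.Stcs6

set_option autoImplicit false
set_option maxRecDepth 100000

namespace Cfsg.Agent.Lib.Helper3.G22r

open Cfsg.Agent.Lib.Helper11 Cfsg.Agent.Lib.Helper3

set_option maxHeartbeats 0

noncomputable def ntl : List (List (ℕ × ℕ)) := [[], [(0x912605c0, 32), (0xefb40000c70d, 16), (0xf2004c00cb00ba, 8), (0x2020c06010d0600, 4), (0x320330000313103, 2), (0x114144104411400, 1), (0x20202002000, 2), (0x20a040600000400, 4), (0xac00c800dc00ac, 8), (0x7fa40000cb3e, 16), (0x95741ccc, 32)], [(0x3dc3a44, 32), (0x1704000025b4, 16), (0x950071002600e4, 8), (0x30e090f0c000906, 4), (0x2201232011201220, 2), (0x4151401404454150, 1), (0x200200000202200, 2), (0xc0e0a080a080e, 4), (0xa6005800ca00ca, 8), (0x42600001f00, 16), (0x513de506, 32)], [(0x95741ccc, 32), (0x7fa400001481, 16), (0x5600c800ac0023, 8), (0xa0c040606000f01, 4), (0x120310213033302, 2), (0x1440414141004104, 1), (0x2000000002002000, 2), (0x20c0c0604000200, 4), (0x4004c00ba0034, 8), (0xefb4000018b2, 16), (0x912605c0, 32)], [(0x513de506,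 32), (0x52e000029d8, 16), (0xf200a7000500ec, 8), (0xf0505030a030800, 4), (0x3102003010301300, 2), (0x1414414415110504, 1), (0x2202020200220000, 2), (0xc04000a000a0c08, 4), (0x9a008e00d800c6, 8), (0x1b040000bcc0, 16), (0x3dc3a44, 32)], [(0xe0060094, 32), (0xda1700004f27, 16), (0x5600a000620008, 8), (0xf060b0408080d0b, 4), (0x3211032301102333, 2), (0x4154040010450404, 1), (0x202020020000002, 2), (0x20802040a000804, 4), (0x54003a0036000c, 8), (0x56d000003114, 16), (0xad642240, 32)], [(0xad642240, 32), (0xa92f0000ceeb, 16), (0x3a005c002c0036, 8), (0xd040d08070a0a04, 4), (0x1023232132132130, 2), (0x1000115110101015, 1), (0x200200000020, 2), (0x404000602000800, 4), (0xa0004600000062, 8), (0x25e80000b0d8, 16), (0xe0060094, 32)], [(0x597f20ea, 32), (0xcfaa0000fb7c, 16), (0x4c0028004f0074, 8), (0xd0a040605090701, 4), (0x2132111030222323, 2), (0x1041110545114511, 1), (0x2022000000000000, 2), (0x40400020c000200, 4), (0xf4003c004000d8, 8), (0xb3ac00003126, 16), (0x508f8e20, 32)], [(0xd4878421, 32), (0x243b000045e7,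 16), (0x1700b800a8001a, 8), (0x8000b0206070f0f, 4), (0x112331010033211, 2), (0x1405050151155041, 1), (0x200000002, 2), (0x404020804040e02, 4), (0x7a004800ae0012, 8), (0x844400003990, 16), (0xd97702a8, 32)], [(0x52cd6521, 32), (0x4b370000b212, 16), (0x5800c600ad00c5, 8), (0x60803070a0d0d03, 4), (0x212220110021023, 2), (0x511540540004114, 1), (0x20020002222, 2), (0x20208080800, 4), (0x88001a0082, 8), (0x301a0000a9a4, 16), (0x2d8c014c, 32)], [(0x50766ea3, 32), (0x2ba4000049e5, 16), (0xc70021006a0091, 8), (0x50a04020d0d0109, 4), (0x10012022200131, 2), (0x1010011141540541, 1), (0x2020020022020000, 2), (0x20a0200080c0e0a, 4), (0xe2005200800050, 8), (0x3202000095c8, 16), (0x2db21bea, 32)]]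
noncomputable def INV : ℕ := 10492919913943136
abbrev deg : ℕ := 63

theorem setup : NetSetup ntl deg 6 INV 10 where
  hok := by decide +kernel
  hstab := by decide +kernel
  hlen := by decide +kernel
  h0 := by decide +kernel
  hINV := by decide +kernel
  hINV0 := by decide +kernel
  htriv := by decide +kernel

end Cfsg.Agent.Lib.Helper3.G22r
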