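import Cfsg.Agent.Lib.Helper3.G22r.Mat
import Cfsg.Agent.Lib.Helper3.Graph4
import Cfsg.Agent.Lib.Helper3.G24.CardG2
import Cfsg.Agent.Lib.Helper3.ChevCongr

set_option autoImplicit false
set_option maxRecDepth 100000

namespace Cfsg.Agent.Lib.Helper3.G22r

open Cfsg.Agent.Lib.Helper11 Cfsg.Agent.Lib.Helper3 Matrix

set_option maxHeartbeats 0

/-- the index type -/
abbrev II : Type := Cfsg.Lie.chevG2.Idx

/-- numbering of the coordinates -/
def ee : II ≃ Fin 14 where
  toFun
    | .inl i => ⟨i.val, by have := i.2; simp only [Cfsg.Lie.chevG2] at this; omega⟩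
    | .inr i => ⟨2 + i.val, by have := i.2; simp only [Cfsg.Lie.chevG2] at this; omega⟩
  invFun k := if h : k.val < 2 then .inl ⟨k.val, h⟩ else .inr ⟨k.val - 2, by
    have := k.2; simp only [Cfsg.Lie.chevG2]; omega⟩
  left_inv := by decide
  right_inv := by decide

theorem lenR (w : List ℕ) : ∀ W ∈ w.map RR, W.length ≤ 14 := by
  intro W hW
  obtain ⟨x, _, rfl⟩ := List.mem_map.1 hW
  unfold RR
  split <;> simp

theorem RR_eq : ∀ x ∈ xs, toM ee (RR x) = Cfsg.Lie.chevG2.xMat (ZMod 2) (rootOf x).1 (rootOf x).2 := by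
  decide +kernel

theorem sqOK : ∀ x ∈ xs, ∀ j < 14, mvW ([x, x].map RR) (basL 14 j) = mvW ([].map RR) (basL 14 j) := by
  decide +kernel

theorem sq_mat (x : ℕ) (hx : x ∈ xs) : toM ee (RR x) * toM ee (RR x) = 1 := by
  have := prod_toM_eq ee ([x, x].map RR) ([].map RR) (lenR _) (lenR _) (sqOK x hx)
  simpa using this

/-- the Chevalley group -/
abbrev GG : Subgroup (GL II (ZMod 2)) := Cfsg.Lie.chevG2.group (ZMod 2)

open Classical in
/-- the root elements -/
noncomputable def rr (x : ℕ) : GG :=
  if hx : x ∈ xs then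
    ⟨⟨toM ee (RR x), toM ee (RR x), sq_mat x hx, sq_mat x hx⟩,
      Subgroup.subset_closure ⟨(rootOf x).1, (rootOf x).2, RR_eq x hx⟩⟩
  else 1

/-- matrices of the elements -/
def TT : GG →* Matrix II II (ZMod 2) := (Units.coeHom _).comp GG.subtype

theorem TT_inj : Function.Injective TT := by
  intro a b h
  exact Subtype.ext (Units.ext h)

theorem TT_rr (x : ℕ) (hx : x ∈ xs) : TT (rr x) = toM ee (RR x) := by
  unfold rr
  rw [dif_pos hx]
  rfl

theorem TT_word (w : List ℕ) (hw : ∀ l ∈ w, l ∈ xs) :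
    TT ((w.map rr).prod) = ((w.map RR).map (toM ee)).prod := by
  induction w with
  | nil => simp
  | cons a t ih =>
    rw [List.map_cons, List.prod_cons, map_mul, TT_rr a (hw a (by simp)),
      ih (fun l hl => hw l (by simp [hl]))]
    simp

noncomputable def vM (l : ℕ) : GG :=
  if l = 1 then (w1.map rr).prod else if l = 2 then (w2.map rr).prod else 1

theorem card_g2 : Nat.card GG = 12096 := by
  have h := Cfsg.Agent.Lib.Helper3.G24c.card_G2 (F := ZMod 2) (q := 2) (by simp)
  rw [h]
  norm_num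

/-- the points -/
def pp : Fin 63 → II → ZMod 2 := fun i => toV ee (pt i)

def frB : II → Fin 63 := fun k => ⟨frBL.getD (ee k) 0 % 63, Nat.mod_lt _ (by norm_num)⟩

theorem pp_inj : Function.Injective pp := by decide +kernel

theorem prodOK1 : ∀ j < 14, mvW (w1.map RR) (basL 14 j) = mvW [AL] (basL 14 j) := by decide +kernel
theorem prodOK2 : ∀ j < 14, mvW (w2.map RR) (basL 14 j) = mvW [BL] (basL 14 j) := by decide +kernel

theorem c_eq_one (c : ZMod 2) (hc : c ≠ 0) : c = 1 := by
  revert c
  decide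

/-- the subgroup generated by the two elements -/
noncomputable abbrev KK : Subgroup GG := lgrp vM [1, 2]

theorem KK_iso : Nonempty (KK ≃* lgrp (vL ntl deg) [1, 2]) := by
  apply iso_of_graph_inj (projGraph TT pp) _ _ vM (vL ntl deg) [1, 2]
  · intro x hx
    simp only [List.mem_cons, List.mem_nil_iff, or_false] at hx
    rcases hx with rfl | rfl
    · exact setup.mem_projGraph_of_chkW TT _ ee [AL] (by decide)
        ((TT_word w1 (by decide)).trans (prod_toM_eq ee _ _ (lenR _) (by decide) prodOK1)) pt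
        (fun i => ptOf_length _ _ _ _ _) _ _ 1 chk1
    · exact setup.mem_projGraph_of_chkW TT _ ee [BL] (by decide)
        ((TT_word w2 (by decide)).trans (prod_toM_eq ee _ _ (lenR _) (by decide) prodOK2)) pt
        (fun i => ptOf_length _ _ _ _ _) _ _ 2 chk2
  · intro σ hσ
    rw [mem_projGraph] at hσ
    ext i
    obtain ⟨c, hc, h⟩ := hσ i
    rw [map_one, Matrix.one_mulVec, c_eq_one c hc, one_smul] at h
    rw [← pp_inj h]
    rfl
  · intro g hg
    obtain ⟨c0, hc⟩ := scalar_of_projGraph TT pp frB frI (toM ee frInvL) (toV ee frAL)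
      (by decide +kernel) (by decide +kernel) (by decide +kernel) g hg
    have hc0 : c0 ≠ 0 := by
      rintro rfl
      rw [zero_smul] at hc
      have h1 : TT g * TT g⁻¹ = 1 := by rw [← map_mul, mul_inv_cancel, map_one]
      rw [hc, zero_mul] at h1
      have h2 := congrFun (congrFun h1 (ee.symm 0)) (ee.symm 0)
      simp at h2
    rw [c_eq_one c0 hc0, one_smul] at hc
    apply TT_inj
    rw [hc, map_one]

theorem KK_card : Nat.card KK = 6048 := by
  obtain ⟨e⟩ := KK_iso
  rw [Nat.card_congr e.toEquiv, card_eq]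

theorem KK_simple : IsSimpleGroup KK := by
  obtain ⟨e⟩ := KK_iso
  exact e.isSimpleGroup_congr.2 simple

theorem KK_index : KK.index = 2 := by
  have h := KK.index_mul_card
  rw [KK_card, card_g2] at h
  omega

theorem comm_eq : commutator GG = KK :=
  commutator_eq_of_index_two KK KK_index KK_simple (by rw [KK_card]; norm_num)

theorem comm_iso : Nonempty (commutator GG ≃* lgrp (vL ntl deg) [1, 2]) := by
  obtain ⟨e⟩ := KK_iso
  exact ⟨(MulEquiv.subgroupCongr comm_eq).trans e⟩

end Cfsg.Agent.Lib.Helper3.G22r
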